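import Cfsg.Agent.SignalizersComponents.InvolutionComponent

set_option autoImplicit false

/-!
# The diagonal case for a component of the centralizer of an involution

`diag_range`: a component `L` of `C(t)` inside `D D ^ t`, `D ≠ D ^ t` a component, is the image of `x ↦ x x ^ t`.
`exists_larger`: if that map is injective and `L` has 2-rank at least 2 then an elementary abelian 2-group `B ∋ t`
centralizing `L` is smaller than some elementary abelian 2-group centralizing `D`.
-/

namespace Cfsg.Agent.SignalizersComponents.MaxComponent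

open Subgroup Cfsg Cfsg.Agent.SignalizersComponents.Components
open Cfsg.Agent.SignalizersComponents.InvolutionComponent
open scoped commutatorElement

variable {G : Type*} [Group G]

theorem swap_comm {t : G} {D : Subgroup G} (hD : IsComponent D)
    (hDt : D.map (MulAut.conj t).toMonoidHom ≠ D) :
    ∀ x ∈ D, ∀ y ∈ D, x * (t * y * t⁻¹) = (t * y * t⁻¹) * x := by
  have hcomp := component_commutator_eq_bot_of_ne hD (isComponent_conj t hD) (fun h => hDt h.symm)
  intro x hx y hy
  rw [commutator_eq_bot_iff_le_centralizer] at hcomp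
  have := mem_centralizer_iff.mp (hcomp hx) (t * y * t⁻¹)
    ((mem_map_conj_iff t _ D).mpr (by
      have : t⁻¹ * (t * y * t⁻¹) * t = y := by group
      rw [this]; exact hy))
  exact this.symm

/-- A component `L` of `C(t)` inside `D D ^ t`, `D ≠ D ^ t` a component, is the image of `x ↦ x x ^ t`. -/
theorem diag_range (t : G) (ht : t * t = 1) (L : Subgroup G)
    (hLt : L ≤ centralizer ({t} : Set G))
    (hL : IsComponent (L.subgroupOf (centralizer ({t} : Set G))))
    {D : Subgroup G} (hD : IsComponent D) (hLD : L ≤ D ⊔ D.map (MulAut.conj t).toMonoidHom)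
    (hDt : D.map (MulAut.conj t).toMonoidHom ≠ D) :
    ∃ δ : D →* G, (∀ x : D, δ x = x * (t * x * t⁻¹)) ∧ L = δ.range := by
  have hinv : t⁻¹ = t := inv_eq_of_mul_eq_one_left ht
  have hcomp := component_commutator_eq_bot_of_ne hD (isComponent_conj t hD) (fun h => hDt h.symm)
  have hDD := swap_comm hD hDt
  obtain ⟨δ, hδ⟩ := exists_diag t D hDD
  refine ⟨δ, hδ, ?_⟩
  -- elements of `N`
  have htt : ∀ x : G, t * (t * x * t⁻¹) * t⁻¹ = x := by
    intro x
    have : t * (t * x * t⁻¹) * t⁻¹ = (t * t) * x * (t * t)⁻¹ := by group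
    rw [this, ht]; simp
  have hsup : ∀ n ∈ (D ⊔ D.map (MulAut.conj t).toMonoidHom) ⊓
      Subgroup.centralizer ({t} : Set G), ∃ x : D, ∃ z : G,
        z ∈ centralizer ((D ⊔ D.map (MulAut.conj t).toMonoidHom : Subgroup G) : Set G) ∧
        δ x * z = n := by
    rintro n ⟨hn1, hn2⟩
    have hcen : D.map (MulAut.conj t).toMonoidHom ≤ centralizer (D : Set G) := by
      rw [← commutator_eq_bot_iff_le_centralizer, commutator_comm]; exact hcomp
    obtain ⟨x, hx, y', hy', rfl⟩ :=
      (CoprimeBasic.mem_sup_iff (hcen.trans (centralizer_le_normalizer _)) n).mp hn1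
    obtain ⟨y, hy, rfl⟩ := hy'
    have hyy : (MulAut.conj t).toMonoidHom y = t * y * t⁻¹ := rfl
    rw [hyy] at hn2 ⊢
    -- invariance
    have h1 : t * (x * (t * y * t⁻¹)) * t⁻¹ = x * (t * y * t⁻¹) := by
      rw [mem_centralizer_iff.mp hn2 t rfl]; group
    have h2 : (t * x * t⁻¹) * y = x * (t * y * t⁻¹) := by
      rw [← h1]
      have : t * (x * (t * y * t⁻¹)) * t⁻¹ = (t * x * t⁻¹) * (t * (t * y * t⁻¹) * t⁻¹) := by group
      rw [this, htt]
    have h3 : y * (t * x * t⁻¹) = x * (t * y * t⁻¹) := by rw [hDD y hy x hx, h2]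
    -- z = x⁻¹ y
    have hzD : x⁻¹ * y ∈ D := D.mul_mem (D.inv_mem hx) hy
    have hz : t * (x⁻¹ * y) * t⁻¹ = x⁻¹ * y := by
      have e1 : t * (x⁻¹ * y) * t⁻¹ = (t * x * t⁻¹)⁻¹ * (t * y * t⁻¹) := by group
      have e2 : (t * y * t⁻¹) = x⁻¹ * (y * (t * x * t⁻¹)) := by rw [h3]; group
      have e3 : x⁻¹ * y * (t * x * t⁻¹) = (t * x * t⁻¹) * (x⁻¹ * y) := hDD _ hzD x hx
      rw [e1]
      rw [e2, ← mul_assoc x⁻¹ y, e3]
      group
    refine ⟨⟨x, hx⟩, x⁻¹ * y, ?_, ?_⟩
    · rw [← Subgroup.zpowers_le, le_centralizer_iff]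
      refine sup_le ?_ ?_
      · rw [le_centralizer_iff, Subgroup.zpowers_le, mem_centralizer_iff]
        intro d hd
        have := hDD d hd _ hzD
        rwa [hz] at this
      · rw [le_centralizer_iff, Subgroup.zpowers_le, mem_centralizer_iff]
        rintro d ⟨d, hd, rfl⟩
        exact (hDD _ hzD d hd).symm
    · rw [hδ]
      show x * (t * x * t⁻¹) * (x⁻¹ * y) = x * (t * y * t⁻¹)
      have e2 : (t * y * t⁻¹) = x⁻¹ * (y * (t * x * t⁻¹)) := by rw [h3]; group
      have e3 : x⁻¹ * y * (t * x * t⁻¹) = (t * x * t⁻¹) * (x⁻¹ * y) := hDD _ hzD x hx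
      rw [e2, ← mul_assoc x⁻¹ y, e3]
      group
  set N := (D ⊔ D.map (MulAut.conj t).toMonoidHom) ⊓ Subgroup.centralizer ({t} : Set G) with hN
  have hδN : ∀ x : D, δ x ∈ N := by
    rintro ⟨x, hx⟩
    rw [hδ, hN]
    refine mem_inf.mpr ⟨mul_mem (mem_sup_left hx) (mem_sup_right ?_), ?_⟩
    · exact ⟨x, hx, rfl⟩
    · rw [mem_centralizer_iff]
      rintro s rfl
      show s * (x * (s * x * s⁻¹)) = x * (s * x * s⁻¹) * s
      have e1 : s * (x * (s * x * s⁻¹)) = (s * x * s⁻¹) * (s * (s * x * s⁻¹) * s⁻¹) * s := by group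
      rw [e1, htt, ← hDD x hx x hx]
  have hNN : ⁅N, N⁆ ≤ δ.range := by
    rw [commutator_le]
    intro a ha b hb
    obtain ⟨x, z, hz, rfl⟩ := hsup a ha
    obtain ⟨y, w, hw, rfl⟩ := hsup b hb
    have hMx : ∀ x : D, δ x ∈ (D ⊔ D.map (MulAut.conj t).toMonoidHom) := fun x =>
      (mem_inf.mp (hδN x)).1
    have hwM : w ∈ (D ⊔ D.map (MulAut.conj t).toMonoidHom) := by
      have h1 := (mem_inf.mp hb).1
      have : w = (δ y)⁻¹ * (δ y * w) := by group
      rw [this]
      exact mul_mem (inv_mem (hMx y)) h1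
    have c1 : Commute z (δ y * w) := by
      refine Commute.mul_right ?_ ?_
      · exact (mem_centralizer_iff.mp hz _ (hMx y)).symm
      · exact (mem_centralizer_iff.mp hz _ hwM).symm
    have c2 : Commute w (δ x)⁻¹ := Commute.inv_right (mem_centralizer_iff.mp hw _ (hMx x)).symm
    have e : ⁅δ x * z, δ y * w⁆ = ⁅δ x, δ y⁆ := by
      calc ⁅δ x * z, δ y * w⁆ = δ x * (z * (δ y * w)) * z⁻¹ * (δ x)⁻¹ * (δ y * w)⁻¹ := by
            simp only [commutatorElement_def]; group
        _ = δ x * δ y * (w * (δ x)⁻¹) * w⁻¹ * (δ y)⁻¹ := by rw [c1.eq]; group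
        _ = _ := by rw [c2.eq]; simp only [commutatorElement_def]; group
    rw [e, ← map_commutatorElement]
    exact ⟨_, rfl⟩
  have hp : Group.IsPerfect L := isPerfect_of_component_subgroupOf hLt hL
  have hLN : L ≤ N := le_inf hLD hLt
  have hLδ : L ≤ δ.range := by
    rw [← Subgroup.isPerfect_iff.mp hp]
    exact (commutator_mono hLN hLN).trans hNN
  have hδL : δ.range ≤ L := by
    -- the preimage of `L` in `D` is subnormal
    let δ' : D →* centralizer ({t} : Set G) := δ.codRestrict _ (fun x => (mem_inf.mp (hδN x)).2)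
    have h1 : ((L.subgroupOf (centralizer ({t} : Set G))).comap δ').IsSubnormal := hL.1.comap δ'
    have h2 : (L.subgroupOf (centralizer ({t} : Set G))).comap δ' = L.comap δ := rfl
    rw [h2] at h1
    rcases quasisimple_subnormal hD.2 h1 with h | h
    · rintro _ ⟨x, rfl⟩
      have : x ∈ L.comap δ := by rw [h]; trivial
      exact this
    · exfalso
      apply quasisimple_center_ne_top hL.2
      rw [eq_top_iff]
      intro x _
      rw [mem_center_iff]
      intro g
      apply Subtype.ext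
      apply Subtype.ext
      obtain ⟨x', hx'⟩ := hLδ x.2
      obtain ⟨g', hg'⟩ := hLδ g.2
      have h3 : x' ∈ center D := h (by rw [mem_comap, hx']; exact x.2)
      have h4 := mem_center_iff.mp h3 g'
      have h5 := congrArg δ h4
      rw [map_mul, map_mul, hx', hg'] at h5
      exact h5
  exact le_antisymm hLδ hδL

/-- Dichotomy: such an `L` lies in a component or is a diagonal. -/
theorem le_component_or_diag (t : G) (ht : t * t = 1) (L : Subgroup G)
    (hLt : L ≤ centralizer ({t} : Set G))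
    (hL : IsComponent (L.subgroupOf (centralizer ({t} : Set G)))) (hLE : L ≤ layer G) :
    ∃ D : Subgroup G, IsComponent D ∧ (L ≤ D ∨ (D.map (MulAut.conj t).toMonoidHom ≠ D ∧
      ∃ δ : D →* G, (∀ x : D, δ x = x * (t * x * t⁻¹)) ∧ L = δ.range)) := by
  obtain ⟨D, hD, hLD⟩ := exists_component_le_sup t ht L hLt hL hLE
  refine ⟨D, hD, ?_⟩
  by_cases hDt : D.map (MulAut.conj t).toMonoidHom = D
  · left
    rwa [hDt, sup_idem] at hLD
  · right
    exact ⟨hDt, diag_range t ht L hLt hL hD hLD hDt⟩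

/-- In the diagonal case with `x ↦ x x ^ t` injective: an elementary abelian 2-group `B ∋ t` centralizing
`L` is smaller than some elementary abelian 2-group centralizing `D`. -/
theorem exists_larger [Finite G] (t : G) (ht : t * t = 1) {D L B : Subgroup G} (hD : IsComponent D)
    (hDt : D.map (MulAut.conj t).toMonoidHom ≠ D) (δ : D →* G)
    (hδ : ∀ x : D, δ x = x * (t * x * t⁻¹)) (hLδ : L = δ.range) (hinj : Function.Injective δ)
    (hrk : ¬ PRankLE 2 1 ↥L) (hB : IsElementaryAbelian 2 B) (htB : t ∈ B)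
    (hBL : B ≤ centralizer (L : Set G)) :
    ∃ E : Subgroup G, IsElementaryAbelian 2 E ∧ E ≤ centralizer (D : Set G) ∧
      Nat.card B < Nat.card E := by
  have hDD := swap_comm hD hDt
  have hcB : ∀ x ∈ B, ∀ y ∈ B, x * y = y * x := fun x hx y hy =>
    congrArg Subtype.val (hB.1.is_comm.comm (⟨x, hx⟩ : ↥B) ⟨y, hy⟩)
  have hsB : ∀ x ∈ B, x * x = 1 := fun x hx => by rw [← pow_two]; exact hB.2 x hx
  have htt : ∀ x : G, t * (t * x * t⁻¹) * t⁻¹ = x := by
    intro x
    have : t * (t * x * t⁻¹) * t⁻¹ = (t * t) * x * (t * t)⁻¹ := by group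
    rw [this, ht]; simp
  -- the elements of `B` normalizing `D`
  set B₀ : Subgroup G := B ⊓ centralizer (D : Set G) with hB₀
  -- an element of `B` normalizing `D` centralizes it
  have hnc : ∀ x ∈ B, D.map (MulAut.conj x).toMonoidHom = D → x ∈ B₀ := by
    intro x hx hxD
    refine mem_inf.mpr ⟨hx, ?_⟩
    rw [mem_centralizer_iff]
    intro d hd
    have h1 : x * d * x⁻¹ ∈ D := by
      rw [← hxD]; exact ⟨d, hd, rfl⟩
    have h2 : δ ⟨x * d * x⁻¹, h1⟩ = δ ⟨d, hd⟩ := by
      have h3 : δ ⟨d, hd⟩ ∈ L := by rw [hLδ]; exact ⟨_, rfl⟩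
      have h4 := mem_centralizer_iff.mp (hBL hx) _ h3
      have h5 : δ ⟨d, hd⟩ = x * δ ⟨d, hd⟩ * x⁻¹ := by rw [← h4]; group
      rw [h5, hδ, hδ]
      have hxt : x * t = t * x := hcB x hx t htB
      have hxt' : t⁻¹ * x⁻¹ = x⁻¹ * t⁻¹ := by
        rw [← mul_inv_rev, ← mul_inv_rev, hxt]
      show x * d * x⁻¹ * (t * (x * d * x⁻¹) * t⁻¹) = x * (d * (t * d * t⁻¹)) * x⁻¹
      calc x * d * x⁻¹ * (t * (x * d * x⁻¹) * t⁻¹)
          = x * d * x⁻¹ * ((t * x) * d * (x⁻¹ * t⁻¹)) := by group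
        _ = x * d * x⁻¹ * ((x * t) * d * (t⁻¹ * x⁻¹)) := by rw [← hxt, ← hxt']
        _ = _ := by group
    have h3 := congrArg Subtype.val (hinj h2)
    have h4 : x * d * x⁻¹ = d := h3
    calc d * x = (x * d * x⁻¹) * x := by rw [h4]
      _ = x * d := by group
  -- every element of `B` permutes `{D, D ^ t}`
  have hperm : ∀ x ∈ B, x ∈ B₀ ∨ t * x ∈ B₀ := by
    intro x hx
    by_cases h1 : D.map (MulAut.conj x).toMonoidHom = D
    · left; exact hnc x hx h1
    by_cases h2 : D.map (MulAut.conj (t * x)).toMonoidHom = D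
    · right; exact hnc _ (mul_mem htB hx) h2
    exfalso
    -- `D ^ x` and `D ^ (t x)` both commute with `D`
    have h3 := component_commutator_eq_bot_of_ne hD (isComponent_conj x hD) (fun h => h1 h.symm)
    have h4 := component_commutator_eq_bot_of_ne hD (isComponent_conj (t * x) hD)
      (fun h => h2 h.symm)
    rw [commutator_eq_bot_iff_le_centralizer] at h3 h4
    -- hence `L` commutes with `D`
    have h5 : D ≤ centralizer (L : Set G) := by
      intro d hd
      rw [mem_centralizer_iff]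
      intro l hl
      rw [hLδ] at hl
      obtain ⟨y, rfl⟩ := hl
      have h6 : δ y ∈ L := by rw [hLδ]; exact ⟨_, rfl⟩
      have h7 := mem_centralizer_iff.mp (hBL hx) _ h6
      have h8 : δ y = x * δ y * x⁻¹ := by rw [← h7]; group
      have h9 : δ y = (x * y * x⁻¹) * ((t * x) * y * (t * x)⁻¹) := by
        rw [h8, hδ]
        have hxt : x * t = t * x := hcB x hx t htB
        calc x * (y * (t * y * t⁻¹)) * x⁻¹ = (x * y * x⁻¹) * ((x * t) * y * (x * t)⁻¹) := by group
          _ = _ := by rw [hxt]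
      have h10 := mem_centralizer_iff.mp (h3 hd) (x * y * x⁻¹) ⟨y, y.2, rfl⟩
      have h11 := mem_centralizer_iff.mp (h4 hd) ((t * x) * y * (t * x)⁻¹) ⟨y, y.2, rfl⟩
      rw [h9, mul_assoc, h11, ← mul_assoc, h10, mul_assoc]
    -- and with `D ^ t`, so `L` is abelian
    have htL : ∀ l ∈ L, t * l * t⁻¹ = l := by
      intro l hl
      rw [← mem_centralizer_iff.mp (hBL htB) l hl]; group
    have h6 : ∀ d ∈ D, ∀ l ∈ L, l * (t * d * t⁻¹) = (t * d * t⁻¹) * l := by
      intro d hd l hl
      have h7 := mem_centralizer_iff.mp (h5 hd) l hl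
      have h8 := htL l hl
      calc l * (t * d * t⁻¹) = (t * l * t⁻¹) * (t * d * t⁻¹) := by rw [h8]
        _ = t * (l * d) * t⁻¹ := by group
        _ = t * (d * l) * t⁻¹ := by rw [h7]
        _ = (t * d * t⁻¹) * (t * l * t⁻¹) := by group
        _ = _ := by rw [h8]
    have h7 : ∀ d ∈ D, ∀ e ∈ D, d * e = e * d := by
      intro d hd e he
      have h8 : (δ ⟨e, he⟩) ∈ L := by rw [hLδ]; exact ⟨_, rfl⟩
      have h9 : (δ ⟨d, hd⟩) ∈ L := by rw [hLδ]; exact ⟨_, rfl⟩
      have h10 : δ ⟨e, he⟩ * δ ⟨d, hd⟩ = δ ⟨d, hd⟩ * δ ⟨e, he⟩ := by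
        have e1 := mem_centralizer_iff.mp (h5 hd) _ h8
        have e2 := h6 d hd _ h8
        have e3 : δ ⟨d, hd⟩ = d * (t * d * t⁻¹) := hδ ⟨d, hd⟩
        rw [e3]
        calc δ ⟨e, he⟩ * (d * (t * d * t⁻¹)) = (δ ⟨e, he⟩ * d) * (t * d * t⁻¹) :=
              (mul_assoc _ _ _).symm
          _ = d * (δ ⟨e, he⟩ * (t * d * t⁻¹)) := by rw [e1]; exact mul_assoc _ _ _
          _ = d * ((t * d * t⁻¹) * δ ⟨e, he⟩) := by rw [e2]
          _ = _ := (mul_assoc _ _ _).symm
      rw [← map_mul, ← map_mul] at h10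
      exact (congrArg Subtype.val (hinj h10)).symm
    apply quasisimple_center_ne_top hD.2
    rw [eq_top_iff]
    intro x _
    rw [mem_center_iff]
    intro g
    apply Subtype.ext
    exact h7 g.1 g.2 x.1 x.2
  -- the order of `B`
  have hcard : Nat.card B ≤ 2 * Nat.card B₀ := by
    have h1 : (B : Set G) ⊆ (B₀ : Set G) ∪ ((fun y => t * y) '' (B₀ : Set G)) := by
      intro x hx
      rcases hperm x hx with h | h
      · left; exact h
      · right
        refine ⟨t * x, h, ?_⟩
        show t * (t * x) = x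
        rw [← mul_assoc, ht, one_mul]
    have h2 := Set.ncard_le_ncard h1 (Set.toFinite _)
    have h3 := Set.ncard_union_le (B₀ : Set G) ((fun y => t * y) '' (B₀ : Set G))
    have h4 : ((fun y => t * y) '' (B₀ : Set G)).ncard ≤ (B₀ : Set G).ncard :=
      Set.ncard_image_le (Set.toFinite _)
    have h5 : (B : Set G).ncard = Nat.card B := rfl
    have h6 : (B₀ : Set G).ncard = Nat.card B₀ := rfl
    omega
  -- an elementary abelian subgroup of `L` of order at least 4
  unfold PRankLE at hrk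
  push Not at hrk
  obtain ⟨A, hA1, hA2, hA3⟩ := hrk
  -- its copy in `D ^ t`
  let φ : D →* G := (MulAut.conj t).toMonoidHom.comp D.subtype
  have hφ : ∀ x : D, φ x = t * x * t⁻¹ := fun x => rfl
  have hφi : Function.Injective φ := fun x y h => Subtype.ext ((MulAut.conj t).injective h)
  let E₁ : Subgroup G := ((A.map L.subtype).comap δ).map φ
  have hE₁c : ∀ x ∈ E₁, ∀ y ∈ E₁, x * y = y * x := by
    rintro _ ⟨x, hx, rfl⟩ _ ⟨y, hy, rfl⟩
    obtain ⟨x', hx', hxx⟩ := hx
    obtain ⟨y', hy', hyy⟩ := hy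
    have h1 : x' * y' = y' * x' :=
      congrArg Subtype.val (hA1.is_comm.comm (⟨x', hx'⟩ : ↥A) ⟨y', hy'⟩)
    have h2 : x * y = y * x := by
      apply hinj
      rw [map_mul, map_mul, ← hxx, ← hyy]
      exact congrArg Subtype.val h1
    rw [← map_mul, ← map_mul, h2]
  have hE₁s : ∀ x ∈ E₁, x * x = 1 := by
    rintro _ ⟨x, hx, rfl⟩
    obtain ⟨x', hx', hxx⟩ := hx
    have h1 : x' ^ 2 = 1 := hA2 x' hx'
    have h2 : x * x = 1 := by
      apply hinj
      rw [map_mul, map_one, ← hxx, ← map_mul, ← pow_two, h1, map_one]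
    rw [← map_mul, h2, map_one]
  have hE₁D : ∀ x ∈ E₁, ∀ d ∈ D, d * x = x * d := by
    rintro _ ⟨x, hx, rfl⟩ d hd
    rw [hφ]
    exact hDD d hd x x.2
  have hE₁card : Nat.card E₁ = Nat.card A := by
    have h1 : Nat.card E₁ = Nat.card ((A.map L.subtype).comap δ) :=
      (Nat.card_congr (((A.map L.subtype).comap δ).equivMapOfInjective φ hφi).toEquiv).symm
    have h2 : ((A.map L.subtype).comap δ).map δ = A.map L.subtype := by
      rw [map_comap_eq, inf_eq_right, ← hLδ]
      exact map_subtype_le A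
    have h3 : Nat.card ((A.map L.subtype).comap δ) = Nat.card (((A.map L.subtype).comap δ).map δ) :=
      (Nat.card_congr (((A.map L.subtype).comap δ).equivMapOfInjective δ hinj).toEquiv)
    have h4 : Nat.card (A.map L.subtype) = Nat.card A :=
      (Nat.card_congr (A.equivMapOfInjective L.subtype (Subtype.val_injective)).toEquiv).symm
    rw [h1, h3, h2, h4]
  -- `B₀` commutes with `D ^ t`
  have hB₀E : ∀ x ∈ B₀, ∀ y ∈ E₁, x * y = y * x := by
    rintro x hx _ ⟨y, hy, rfl⟩
    rw [hφ]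
    obtain ⟨hx1, hx2⟩ := mem_inf.mp hx
    have hxt : x * t = t * x := hcB x hx1 t htB
    have hxy : (y : G) * x = x * y := mem_centralizer_iff.mp hx2 y y.2
    have hxt' : t⁻¹ * x = x * t⁻¹ := by
      rw [inv_mul_eq_iff_eq_mul, ← mul_assoc, ← hxt, mul_assoc, mul_inv_cancel, mul_one]
    calc x * (t * y * t⁻¹) = (x * t) * y * t⁻¹ := by group
      _ = t * (x * y) * t⁻¹ := by rw [hxt]; group
      _ = t * (y * x) * t⁻¹ := by rw [hxy]
      _ = t * y * (x * t⁻¹) := by group
      _ = t * y * (t⁻¹ * x) := by rw [hxt']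
      _ = _ := by group
  -- they meet trivially
  have hdisj : ∀ x ∈ B₀, x ∈ E₁ → x = 1 := by
    intro x hx hxE
    have hxE' := hxE
    obtain ⟨y, hy, rfl⟩ := hxE
    obtain ⟨hx1, hx2⟩ := mem_inf.mp hx
    have hxt : φ y * t = t * φ y := hcB _ hx1 t htB
    rw [hφ] at hxt
    have h1 : (y : G) = t * y * t⁻¹ := by
      have e1 : (t * y * t⁻¹) * t = t * y := by group
      rw [e1] at hxt
      exact mul_left_cancel hxt
    have h2 : δ y = 1 := by
      rw [hδ, ← h1]
      have h3 := hE₁s _ hxE'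
      rw [hφ, ← h1] at h3
      exact h3
    have h3 : y = 1 := hinj (by rw [h2, map_one])
    rw [h3, map_one]
  refine ⟨B₀ ⊔ E₁, ⟨?_, ?_⟩, ?_, ?_⟩
  · have hle : B₀ ≤ centralizer (E₁ : Set G) := by
      intro x hx
      rw [mem_centralizer_iff]
      intro y hy
      exact (hB₀E x hx y hy).symm
    refine ⟨⟨?_⟩⟩
    rintro ⟨x, hx⟩ ⟨y, hy⟩
    obtain ⟨x1, hx1, x2, hx2, rfl⟩ := (CoprimeBasic.mem_sup_iff
      (show E₁ ≤ normalizer (B₀ : Set G) from (le_centralizer_iff.mp hle).trans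
        (centralizer_le_normalizer _)) x).mp hx
    obtain ⟨y1, hy1, y2, hy2, rfl⟩ := (CoprimeBasic.mem_sup_iff
      (show E₁ ≤ normalizer (B₀ : Set G) from (le_centralizer_iff.mp hle).trans
        (centralizer_le_normalizer _)) y).mp hy
    apply Subtype.ext
    show x1 * x2 * (y1 * y2) = y1 * y2 * (x1 * x2)
    have c1 : Commute x1 y1 := hcB x1 (mem_inf.mp hx1).1 y1 (mem_inf.mp hy1).1
    have c2 : Commute x1 y2 := hB₀E x1 hx1 y2 hy2
    have c3 : Commute x2 y1 := (hB₀E y1 hy1 x2 hx2).symm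
    have c4 : Commute x2 y2 := hE₁c x2 hx2 y2 hy2
    exact ((c1.mul_right c2).mul_left (c3.mul_right c4)).eq
  · intro x hx
    have hle : B₀ ≤ centralizer (E₁ : Set G) := by
      intro x hx
      rw [mem_centralizer_iff]
      intro y hy
      exact (hB₀E x hx y hy).symm
    obtain ⟨x1, hx1, x2, hx2, rfl⟩ := (CoprimeBasic.mem_sup_iff
      (show E₁ ≤ normalizer (B₀ : Set G) from (le_centralizer_iff.mp hle).trans
        (centralizer_le_normalizer _)) x).mp hx
    have c : Commute x1 x2 := hB₀E x1 hx1 x2 hx2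
    rw [c.mul_pow, pow_two, pow_two, hsB x1 (mem_inf.mp hx1).1, hE₁s x2 hx2, one_mul]
  · refine sup_le inf_le_right ?_
    intro x hx
    rw [mem_centralizer_iff]
    intro d hd
    exact hE₁D x hx d hd
  · -- orders
    have h1 : Nat.card B₀ * Nat.card E₁ ≤ Nat.card (B₀ ⊔ E₁ : Subgroup G) := by
      rw [← Nat.card_prod]
      refine Nat.card_le_card_of_injective
        (fun p : B₀ × E₁ => (⟨(p.1 : G) * (p.2 : G), mul_mem (mem_sup_left p.1.2) (mem_sup_right p.2.2)⟩ :
          (B₀ ⊔ E₁ : Subgroup G))) ?_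
      rintro ⟨a, b⟩ ⟨c, d⟩ h
      have h2 : (a : G) * b = c * d := congrArg Subtype.val h
      have h3 : (c : G)⁻¹ * a = d * (b : G)⁻¹ := by
        rw [inv_mul_eq_iff_eq_mul, ← mul_assoc, ← h2]; group
      have h4 : (c : G)⁻¹ * a = 1 := by
        refine hdisj _ (mul_mem (inv_mem c.2) a.2) ?_
        rw [h3]
        exact mul_mem d.2 (inv_mem b.2)
      have h5 : (a : G) = c := by
        rw [inv_mul_eq_one] at h4; exact h4.symm
      have h6 : (b : G) = d := by
        rw [h4] at h3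
        exact (mul_inv_eq_one.mp h3.symm).symm
      ext
      · exact h5
      · exact h6
    have h2 : 2 < Nat.card E₁ := by rw [hE₁card]; simpa using hA3
    have h3 : 0 < Nat.card B₀ := Nat.card_pos
    nlinarith

end Cfsg.Agent.SignalizersComponents.MaxComponent
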